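import Mathlib
import Cfsg.Agent.Lib.Helper85.USim.Defs
import Cfsg.Agent.Lib.Helper40.Subf5

/-!
# USIM (S5982) package [7] `pDer`

The three diagonal derangement patterns `(1, 1, -2, 0, …)`, `(1, 0, …)` (with a scalar `c`),
`(1, 1, 1, 0, …)`: a diagonal element `diag (c ω^(e j))` of determinant 1 whose exponent pattern
has no symmetry `u ↦ s - q₀ u` is not conjugate into `HU` (by [EXP]).
(Mirror of `Helper40.Subf5.derange_gen`, `derange_b/c/d`, with `Q = -q₀`.)
-/

set_option autoImplicit false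
open scoped MatrixGroups

namespace Cfsg.Agent.Lib.Helper59.USim

open Cfsg.Agent.Lib.Helper85.USim Cfsg.Agent.Lib.Helper40 Cfsg.Agent.Lib.Helper40.Subf5

universe u

/-- a general derangement: a diagonal element whose exponent pattern has no twisted symmetry -/
theorem uder_gen (hexp : PExp.{u}) {F : Type u} [Field F] [Fintype F] {n : ℕ} (hn : 1 ≤ n)
    (q₀ : ℕ) (hF : Fintype.card F = q₀ ^ 2) {r : ℕ} [Fact r.Prime] {ω : F}
    (hω : IsPrimitiveRoot ω r) (c : F) (e : Fin n → ZMod r)
    (hdet : c ^ n * ω ^ (∑ j, e j).val = 1) (j j' : Fin n) (hjj : e j ≠ e j')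
    (hcomb : ∀ s : ZMod r, ¬ ∀ u : ZMod r,
      Nat.card {j // e j = u} = Nat.card {j // e j = s + (-((q₀ : ℕ) : ZMod r)) * u}) :
    HasDerU F q₀ r n := by
  classical
  have hω1 := hω.pow_eq_one
  have hc : c ≠ 0 := by
    rintro rfl
    rw [zero_pow (by omega), zero_mul] at hdet
    exact zero_ne_one hdet
  have hd : (Matrix.diagonal (fun j => c * ω ^ (e j).val)).det = 1 := by
    rw [Matrix.det_diagonal, Finset.prod_mul_distrib, Finset.prod_const, Finset.card_univ,
      Fintype.card_fin, prod_psi hω1, hdet]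
  obtain ⟨x, hx⟩ : ∃ x : GL (Fin n) F,
      (x : Matrix (Fin n) (Fin n) F) = Matrix.diagonal (fun j => c * ω ^ (e j).val) :=
    ⟨Matrix.GeneralLinearGroup.mk'' (Matrix.diagonal (fun j => c * ω ^ (e j).val))
      (by rw [hd]; exact isUnit_one), rfl⟩
  refine ⟨x, (mem_SLn_iff x).mpr (by rw [hx]; exact hd), ⟨c ^ r, ?_⟩, ?_, ?_⟩
  · rw [Units.val_pow_eq_pow_val, hx, Matrix.diagonal_pow, Matrix.smul_one_eq_diagonal]
    congr 1
    ext i
    simp only [Pi.pow_apply]
    rw [mul_pow, ← pow_mul, mul_comm (e i).val r, pow_mul, hω1, one_pow, mul_one]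
  · intro z hz
    rw [hx] at hz
    have h1 := congrFun (congrFun hz j) j
    have h2 := congrFun (congrFun hz j') j'
    simp only [Matrix.diagonal_apply_eq, Matrix.smul_apply, Matrix.one_apply_eq, smul_eq_mul,
      mul_one] at h1 h2
    exact hjj (psi_inj hω (mul_left_cancel₀ hc (h1.trans h2.symm)))
  · intro g _ hg
    obtain ⟨s, hs⟩ := hexp q₀ n r hF hn ω hω c hc e x g hx hg
    exact hcomb s hs

/-- [7] -/
theorem pDer : PExp.{u} → PDer.{u} := by
  intro hexp F _ _ q₀ r _ hF ω hω hQ m
  refine ⟨fun hr5 hm5 => ?_, fun c hc => ?_, fun hr3 hm0 hm3 => ?_⟩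
  · have h3 : (3 : ZMod r) ≠ 0 := by
      have := natCast_ne_zero_of_lt (r := r) 3 (by norm_num) (by omega)
      simpa using this
    have h12 : (1 : ZMod r) ≠ -2 := by
      intro h
      apply h3
      linear_combination h
    apply uder_gen hexp (by omega) q₀ hF hω 1
      (Fin.cons 1 (Fin.cons 1 (Fin.cons (-2) (fun _ => 0)))) ?_ 0 (Fin.succ (Fin.succ 0)) ?_ ?_
    · rw [one_pow, one_mul, sum_cons3]
      have : (1 : ZMod r) + 1 + -2 = 0 := by ring
      rw [this, psi_zero]
    · simp only [Fin.cons_zero, Fin.cons_succ]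
      exact h12
    · intro s hs
      apply comb_b hr5 _ s hQ m hm5
      intro u
      have h := hs u
      rw [card_cons3, card_cons3] at h
      exact h
  · have hr : r.Prime := Fact.out
    have : Fact (1 < r) := ⟨hr.one_lt⟩
    apply uder_gen hexp (by omega) q₀ hF hω c
      (Fin.cons 1 (Fin.cons 0 (Fin.cons 0 (fun _ => 0)))) ?_ 0 (Fin.succ 0) ?_ ?_
    · rw [sum_cons3, add_zero, add_zero, ZMod.val_one, pow_one]
      exact hc
    · simp only [Fin.cons_zero, Fin.cons_succ]
      exact one_ne_zero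
    · intro s hs
      apply comb_c _ s hQ m
      intro u
      have h := hs u
      rw [card_cons3, card_cons3] at h
      exact h
  · have h3 : ((3 : ℕ) : ZMod r) = 0 := (ZMod.natCast_eq_zero_iff 3 r).2 ⟨1, by omega⟩
    have hr : r.Prime := Fact.out
    have : Fact (1 < r) := ⟨hr.one_lt⟩
    apply uder_gen hexp (by omega) q₀ hF hω 1
      (Fin.cons 1 (Fin.cons 1 (Fin.cons 1 (fun _ => 0)))) ?_ 0
      (Fin.succ (Fin.succ (Fin.succ ⟨0, by omega⟩))) ?_ ?_
    · rw [one_pow, one_mul, sum_cons3]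
      have : (1 : ZMod r) + 1 + 1 = 0 := by
        push_cast at h3
        linear_combination h3
      rw [this, psi_zero]
    · simp only [Fin.cons_zero, Fin.cons_succ]
      exact one_ne_zero
    · intro s hs
      apply comb_d _ s hQ m hm0 hm3
      intro u
      have h := hs u
      rw [card_cons3, card_cons3] at h
      exact h

end Cfsg.Agent.Lib.Helper59.USim
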