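import Mathlib
import Cfsg.Agent.Lib.Helper85.USim.Defs
import Cfsg.Agent.Lib.Helper40.Subf5

/-!
# USIM (S5982) package [6] `pExp`

Exponent symmetry of a diagonal element `diag (c ω^(e j))` conjugate into `HU`: the twisted rank
symmetry [RANK] gives equal multiplicities of `μ` and `κ (μ^q₀)⁻¹`, i.e. of the exponents `u` and
`s - q₀ u`.  (Mirror of `Helper40.Subf5.card_of_conj` / `exp_of_conj`.)
-/

set_option autoImplicit false
open scoped MatrixGroups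

namespace Cfsg.Agent.Lib.Helper59.USim

open Cfsg.Agent.Lib.Helper85.USim Cfsg.Agent.Lib.Helper40 Cfsg.Agent.Lib.Helper40.Subf5

universe u

/-- [6] -/
theorem pExp : PRank.{u} → PExp.{u} := by
  intro hrank F _ _ q₀ n r _ hF hn ω hω c hc e x g hx hconj
  classical
  have hω1 : ω ^ r = 1 := hω.pow_eq_one
  have hω0 : ω ≠ 0 := hω.ne_zero (Fact.out : r.Prime).ne_zero
  obtain ⟨κ, hκ, hr⟩ := hrank q₀ n hF x g hconj
  -- equal multiplicities
  have hcard : ∀ μ : F, Nat.card {j // c * ω ^ (e j).val = μ} =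
      Nat.card {j // c * ω ^ (e j).val = κ * (μ ^ q₀)⁻¹} := by
    intro μ
    have h1 := Diag.rank_diagonal_sub (fun j => c * ω ^ (e j).val) μ
    have h2 := Diag.rank_diagonal_sub (fun j => c * ω ^ (e j).val) (κ * (μ ^ q₀)⁻¹)
    have h3 := hr μ
    rw [hx] at h3
    rw [Nat.card_eq_fintype_card, Nat.card_eq_fintype_card]
    omega
  have hfib : ∀ u : ZMod r,
      Nat.card {j // c * ω ^ (e j).val = c * ω ^ u.val} = Nat.card {j // e j = u} := by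
    intro u
    apply Nat.card_congr
    apply Equiv.subtypeEquivRight
    intro j
    constructor
    · intro h1
      exact psi_inj hω (mul_left_cancel₀ hc h1)
    · intro h1
      rw [h1]
  obtain ⟨j₁, hj₁⟩ : ∃ j₁ : Fin n,
      c * ω ^ (e j₁).val = κ * ((c * ω ^ (e ⟨0, hn⟩).val) ^ q₀)⁻¹ := by
    have h1 := hcard (c * ω ^ (e ⟨0, hn⟩).val)
    have h2 : 0 < Nat.card {j // c * ω ^ (e j).val = c * ω ^ (e ⟨0, hn⟩).val} := by
      rw [Nat.card_pos_iff]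
      exact ⟨⟨⟨⟨0, hn⟩, rfl⟩⟩, inferInstance⟩
    rw [h1, Nat.card_pos_iff] at h2
    obtain ⟨⟨⟨j₁, hj₁⟩⟩, -⟩ := h2
    exact ⟨j₁, hj₁⟩
  refine ⟨e j₁ + (q₀ : ZMod r) * e ⟨0, hn⟩, fun u => ?_⟩
  have hkey : κ * ((c * ω ^ u.val) ^ q₀)⁻¹ =
      c * ω ^ (e j₁ + (q₀ : ZMod r) * e ⟨0, hn⟩ + (-((q₀ : ℕ) : ZMod r)) * u).val := by
    rw [neg_mul, psi_add hω1, psi_neg hω1, psi_add hω1, psi_natCast_mul hω1,
      psi_natCast_mul hω1]
    have hne : (c * ω ^ (e ⟨0, hn⟩).val) ^ q₀ ≠ 0 :=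
      pow_ne_zero _ (mul_ne_zero hc (pow_ne_zero _ hω0))
    have hκeq : κ = c * ω ^ (e j₁).val * (c * ω ^ (e ⟨0, hn⟩).val) ^ q₀ := by
      rw [hj₁, mul_assoc, inv_mul_cancel₀ hne, mul_one]
    have hcq : c ^ q₀ ≠ 0 := pow_ne_zero _ hc
    have hωu : (ω ^ u.val) ^ q₀ ≠ 0 := pow_ne_zero _ (pow_ne_zero _ hω0)
    rw [hκeq, mul_pow, mul_pow]
    field_simp
  rw [← hfib u, hcard, hkey, hfib]

end Cfsg.Agent.Lib.Helper59.USim
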